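import Cfsg.Agent.H800.ME.Final
import Cfsg.Agent.MTwelveType.SylowModel
import Cfsg.Agent.J4.M24Hom
import Cfsg.Agent.SporadicA.GolayWalk

/-!
# The Monster: subgroups of order 27 commuting with an element of order 11 (helper74)

* `exists_nonab` : a group with `a³ = b³ = c³ = 1`, `c` central in `⟨a, b⟩`, `b a = a b c`, order not divisible by 81: the
  subgroups of order 27 are not abelian;
* `m12` : the subgroups of order 27 of `M12` are not abelian;
* `l11` : the subgroups of order 27 of `C(w)`, `w` of order 11 commuting with `z`, are not abelian.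
-/

set_option autoImplicit false
set_option maxRecDepth 100000

namespace Cfsg.Agent.H74.OreM.L11

open Subgroup Cfsg

section abs

variable {M : Type*} [Group M] [Finite M]

omit [Finite M] in
theorem isPGroup_zpowers {g : M} (h : g ^ 3 = 1) : IsPGroup 3 (zpowers g) := by
  have : Fact (Nat.Prime 3) := ⟨Nat.prime_three⟩
  rintro ⟨k, hk⟩
  obtain ⟨i, rfl⟩ := mem_zpowers_iff.1 hk
  refine ⟨1, Subtype.ext ?_⟩
  show (g ^ i) ^ 3 ^ 1 = 1
  rw [pow_one, ← zpow_natCast, ← zpow_mul, mul_comm, zpow_mul, zpow_natCast, h, one_zpow]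

/-- normalising a finite subgroup -/
theorem mem_normalizer_of {P : Subgroup M} {g : M} (h : ∀ x ∈ P, g * x * g⁻¹ ∈ P) : g ∈ normalizer (P : Set M) := by
  have h1 : P.map (MulAut.conj g).toMonoidHom = P := by
    apply Subgroup.eq_of_le_of_card_ge
    · rintro _ ⟨x, hx, rfl⟩
      exact h x hx
    · rw [Subgroup.card_map_of_injective (MulAut.conj g).injective]
  rw [mem_normalizer_iff]
  intro x
  constructor
  · exact h x
  · intro hx
    have hx' : g * x * g⁻¹ ∈ P := hx
    rw [← h1] at hx'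
    obtain ⟨y, hy, hxy⟩ := hx'
    have h2 : y = x := (MulAut.conj g).injective hxy
    rwa [← h2]

/-- **The subgroups of order 27 are not abelian.** -/
theorem exists_nonab {a b c : M} (ha : a ^ 3 = 1) (hb : b ^ 3 = 1) (hc : c ^ 3 = 1) (hac : a * c = c * a)
    (hbc : b * c = c * b) (hab : b * a = a * b * c) (hc1 : c ≠ 1) (h81 : ¬ 3 ^ 4 ∣ Nat.card M) {S : Subgroup M}
    (hS : Nat.card S = 27) : ∃ x ∈ S, ∃ y ∈ S, x * y ≠ y * x := by
  have : Fact (Nat.Prime 3) := ⟨Nat.prime_three⟩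
  by_contra hcon
  push Not at hcon
  -- the 3-group `⟨a, b⟩`
  have h1 : IsPGroup 3 (zpowers a ⊔ zpowers c : Subgroup M) := by
    refine (isPGroup_zpowers ha).to_sup_of_normal_right' (isPGroup_zpowers hc) ?_
    rw [zpowers_le]
    apply mem_normalizer_of
    rintro x hx
    obtain ⟨i, rfl⟩ := mem_zpowers_iff.1 hx
    have h2 : Commute a (c ^ i) := (show Commute a c from hac).zpow_right i
    rw [h2.eq, mul_inv_cancel_right]
    exact zpow_mem (mem_zpowers c) i
  have h2 : IsPGroup 3 (zpowers b ⊔ (zpowers a ⊔ zpowers c) : Subgroup M) := by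
    refine (isPGroup_zpowers hb).to_sup_of_normal_right' h1 ?_
    rw [zpowers_le]
    apply mem_normalizer_of
    have h3 : zpowers a ⊔ zpowers c ≤ (zpowers a ⊔ zpowers c).comap (MulAut.conj b).toMonoidHom := by
      rw [sup_le_iff, zpowers_le, zpowers_le]
      constructor
      · rw [mem_comap]
        show b * a * b⁻¹ ∈ _
        have h4 : b * a * b⁻¹ = a * c := by
          rw [hab, mul_assoc a b c, hbc, ← mul_assoc, mul_inv_cancel_right]
        rw [h4]
        exact mul_mem (mem_sup_left (mem_zpowers a)) (mem_sup_right (mem_zpowers c))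
      · rw [mem_comap]
        show b * c * b⁻¹ ∈ _
        rw [hbc, mul_inv_cancel_right]
        exact mem_sup_right (mem_zpowers c)
    intro x hx
    exact h3 hx
  obtain ⟨P, hP⟩ := h2.exists_le_sylow
  have hS3 : IsPGroup 3 S := IsPGroup.of_card (n := 3) (by rw [hS]; norm_num)
  obtain ⟨Q, hQ⟩ := hS3.exists_le_sylow
  have hQS : (Q : Subgroup M) = S := by
    symm
    apply Subgroup.eq_of_le_of_card_ge hQ
    obtain ⟨n, hn⟩ := IsPGroup.iff_card.1 Q.2
    have h4 : n ≤ 3 := by
      by_contra h5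
      push Not at h5
      apply h81
      exact (pow_dvd_pow 3 h5).trans (hn ▸ Subgroup.card_subgroup_dvd_card (Q : Subgroup M))
    rw [hS]
    have h6 : Nat.card Q = 3 ^ n := hn
    rw [h6]
    exact (Nat.pow_le_pow_right (by norm_num) h4).trans (by norm_num)
  obtain ⟨g, hg⟩ := MulAction.exists_smul_eq M P Q
  have key : ∀ x ∈ (zpowers b ⊔ (zpowers a ⊔ zpowers c) : Subgroup M), g * x * g⁻¹ ∈ S := by
    intro x hx
    rw [← hQS, ← hg, Sylow.coe_subgroup_smul]
    exact ⟨x, hP hx, rfl⟩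
  have ka := key a (mem_sup_right (mem_sup_left (mem_zpowers a)))
  have kb := key b (mem_sup_left (mem_zpowers b))
  have h3 := hcon _ ka _ kb
  have h4 : a * b = b * a := by
    calc a * b = g⁻¹ * (g * a * g⁻¹ * (g * b * g⁻¹)) * g := by group
      _ = g⁻¹ * (g * b * g⁻¹ * (g * a * g⁻¹)) * g := by rw [h3]
      _ = b * a := by group
  apply hc1
  rw [hab] at h4
  exact (mul_eq_left.1 h4.symm)

end abs

open Cfsg.Agent.J4.M24Hom (fn)

/-- table of `a` -/
def ta : List ℕ := [6, 3, 0, 13, 12, 11, 2, 21, 16, 4, 7, 17, 9, 1, 20, 22, 18, 5, 8, 15, 23, 10, 19, 14]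
/-- table of `a⁻¹` -/
def tai : List ℕ := [2, 13, 6, 1, 9, 17, 0, 10, 18, 12, 21, 5, 4, 3, 23, 19, 8, 11, 16, 22, 14, 7, 15, 20]
/-- table of `b` -/
def tb : List ℕ := [0, 9, 2, 1, 18, 15, 6, 5, 13, 3, 19, 11, 4, 16, 23, 7, 8, 10, 12, 17, 14, 21, 22, 20]
/-- table of `b⁻¹` -/
def tbi : List ℕ := [0, 3, 2, 9, 12, 7, 6, 15, 16, 1, 17, 11, 18, 8, 20, 5, 13, 19, 4, 10, 23, 21, 22, 14]

/-- an element of order 3 -/
def A : Equiv.Perm GolayPt where
  toFun := fn ta
  invFun := fn tai
  left_inv := by decide +kernel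
  right_inv := by decide +kernel

/-- an element of order 3 -/
def B : Equiv.Perm GolayPt where
  toFun := fn tb
  invFun := fn tbi
  left_inv := by decide +kernel
  right_inv := by decide +kernel

theorem A_mem24 : A ∈ M24 :=
  SporadicA.GolayWalk.mem_M24_of_table A ta rfl (by decide +kernel) (by decide +kernel)

theorem B_mem24 : B ∈ M24 :=
  SporadicA.GolayWalk.mem_M24_of_table B tb rfl (by decide +kernel) (by decide +kernel)

open Cfsg.Agent.SporadicStructure.M11InvPerms Cfsg.Agent.MTwelveType.SylowModel in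
theorem A_dd : ∀ p ∈ dd, A p ∈ dd := by decide +kernel

open Cfsg.Agent.SporadicStructure.M11InvPerms Cfsg.Agent.MTwelveType.SylowModel in
theorem B_dd : ∀ p ∈ dd, B p ∈ dd := by decide +kernel

/-- `A` in `M12` -/
def aa : Spor.M12 := ⟨A, MTwelveType.SylowModel.mem_M12 A_mem24 A_dd⟩

/-- `B` in `M12` -/
def bb : Spor.M12 := ⟨B, MTwelveType.SylowModel.mem_M12 B_mem24 B_dd⟩

theorem A3 : A ^ 3 = 1 := by
  apply Equiv.ext
  decide +kernel

theorem B3 : B ^ 3 = 1 := by
  apply Equiv.ext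
  decide +kernel

theorem C3 : ((A * B)⁻¹ * (B * A)) ^ 3 = 1 := by
  apply Equiv.ext
  decide +kernel

theorem AC : A * ((A * B)⁻¹ * (B * A)) = (A * B)⁻¹ * (B * A) * A := by
  apply Equiv.ext
  decide +kernel

theorem BC : B * ((A * B)⁻¹ * (B * A)) = (A * B)⁻¹ * (B * A) * B := by
  apply Equiv.ext
  decide +kernel

theorem AB : A * B ≠ B * A := by
  intro h
  have h1 : (A * B) (some 1) = (B * A) (some 1) := by rw [h]
  revert h1
  decide +kernel

/-- **The subgroups of order 27 of `M12` are not abelian.** -/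
theorem m12 {S : Subgroup Spor.M12} (hS : Nat.card S = 27) : ∃ x ∈ S, ∃ y ∈ S, x * y ≠ y * x := by
  have hc : Nat.card Spor.M12 = 95040 := MTwelveType.SylowModel.card_M12
  have : Finite Spor.M12 := Nat.finite_of_card_ne_zero (by rw [hc]; norm_num)
  refine exists_nonab (a := aa) (b := bb) (c := (aa * bb)⁻¹ * (bb * aa)) (Subtype.ext A3) (Subtype.ext B3)
    (Subtype.ext C3) (Subtype.ext AC) (Subtype.ext BC) ?_ ?_ (by rw [hc]; norm_num) hS
  · rw [← mul_assoc, mul_inv_cancel, one_mul]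
  · intro h
    have h1 : aa * bb = bb * aa := inv_mul_eq_one.1 h
    exact AB (congrArg Subtype.val h1)

open Cfsg.Agent.BpSpor.MBigModel Cfsg.Agent.LThreeMB in
/-- **The subgroups of order 27 of `C(w)`, `w` of order 11 commuting with `z`.** -/
theorem l11 {w : MG} (hw : orderOf w = 11) (hz : w * zz = zz * w) {B : Subgroup MG}
    (hB : B ≤ Subgroup.centralizer ({w} : Set MG)) (h27 : Nat.card ↥B = 27) :
    ∃ a ∈ B, ∃ b ∈ B, a * b ≠ b * a := by
  have := finite
  have := simple
  obtain ⟨x₀, hx₀, hpx⟩ := H800.ME.Final.exists_x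
  have hxo : orderOf (x₀ : MG) = 11 := by rw [Subgroup.orderOf_coe, hx₀]
  obtain ⟨e⟩ := H800.ME.Twelve.iso chart hx₀ hpx (H800.ME.Final.dvd_XX hxo)
  let w' : centralizer ({zz} : Set MG) := ⟨w, mem_centralizer_singleton_iff.2 hz⟩
  have hw' : orderOf w' = 11 := by rw [← hw]; exact Subgroup.orderOf_mk _ _
  obtain ⟨k, hk⟩ := CpAutON.Gen.conj_into (p := 11) (BpSpor.MBigModel.not_sq (Or.inl rfl) orderOf_zz) hw' hx₀
  obtain ⟨i, hi⟩ := mem_powers_iff_mem_zpowers.2 hk
  obtain ⟨e'⟩ := MFive.exists_cent_equiv (p := 11) (by norm_num) (x := w) (y := (x₀ : MG))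
    hw hxo (k := (k : MG)) (i := i) (by
      have h1 := congrArg Subtype.val hi
      exact h1.symm)
  let φ : B →* Spor.M12 := (e.toMonoidHom.comp ((QuotientGroup.mk' (Zx (x₀ : MG))).comp e'.symm.toMonoidHom)).comp
    (Subgroup.inclusion hB)
  have hφ : Function.Injective φ := by
    rw [injective_iff_map_eq_one]
    intro b hb
    have h1 : QuotientGroup.mk' (Zx (x₀ : MG)) (e'.symm (Subgroup.inclusion hB b)) = 1 := by
      apply e.injective
      rw [map_one]
      exact hb
    have h2 : e'.symm (Subgroup.inclusion hB b) ∈ Zx (x₀ : MG) := (QuotientGroup.eq_one_iff _).1 h1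
    have h3 : (e'.symm (Subgroup.inclusion hB b)) ^ 11 = 1 := by
      rw [Zx, mem_zpowers_iff] at h2
      obtain ⟨j, hj⟩ := h2
      apply Subtype.ext
      rw [← hj]
      show ((x₀ : MG) ^ j) ^ 11 = 1
      rw [← zpow_natCast, ← zpow_mul, mul_comm, zpow_mul, zpow_natCast, ← hxo, pow_orderOf_eq_one, one_zpow]
    have h4 : (Subgroup.inclusion hB b) ^ 11 = 1 := by
      apply e'.symm.injective
      rw [map_pow, h3, map_one]
    have h5 : b ^ 11 = 1 := by
      apply Subgroup.inclusion_injective hB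
      rw [map_pow, h4, map_one]
    have h6 : b ^ 27 = 1 := by rw [← h27]; exact pow_card_eq_one'
    have h7 : orderOf b ∣ 1 := Nat.dvd_gcd (orderOf_dvd_of_pow_eq_one h5) (orderOf_dvd_of_pow_eq_one h6)
    exact orderOf_eq_one_iff.1 (Nat.dvd_one.1 h7)
  have hS : Nat.card φ.range = 27 := by
    rw [← h27]
    exact (Nat.card_congr (MonoidHom.ofInjective hφ).toEquiv).symm
  obtain ⟨x, ⟨a, rfl⟩, y, ⟨b, rfl⟩, hxy⟩ := m12 hS
  refine ⟨a, a.2, b, b.2, fun h => hxy ?_⟩
  have h1 : a * b = b * a := Subtype.ext h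
  rw [← map_mul, h1, map_mul]

end Cfsg.Agent.H74.OreM.L11
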